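import Cfsg.Agent.Orth.Comm

/-!
Orthonormal bases of non-alternating symmetric bilinear forms in characteristic two (finite fields).
-/

set_option autoImplicit false

namespace Cfsg.Agent.Orth

open Module LinearMap LinearMap.BilinForm

universe u v

/-- In a non-alternating non-degenerate space of dimension at least two over a finite field of
characteristic two there is a unit vector whose perp is non-alternating. -/
theorem albert_step {F : Type u} {V : Type v} [Field F] [Finite F] (h2 : (2 : F) = 0) [AddCommGroup V]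
    [Module F V] [FiniteDimensional F V] (B : LinearMap.BilinForm F V) (hS : B.IsSymm)
    (hB : B.Nondegenerate) (hna : ∃ v : V, B v v ≠ 0) (hd : 2 ≤ finrank F V) :
    ∃ v : V, B v v = 1 ∧ ∃ x, B v x = 0 ∧ B x x ≠ 0 := by
  obtain ⟨w, hw⟩ := hna
  obtain ⟨s, hs⟩ := isSquare_of_two_eq_zero h2 (B w w)
  have hs0 : s ≠ 0 := by rintro rfl; rw [mul_zero] at hs; exact hw hs
  obtain ⟨v, hvv⟩ : ∃ v, B v v = 1 := by
    refine ⟨s⁻¹ • w, ?_⟩
    simp only [map_smul, LinearMap.smul_apply, hs, smul_eq_mul]
    field_simp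
  by_cases h : ∃ x, B v x = 0 ∧ B x x ≠ 0
  · exact ⟨v, hvv, h⟩
  push Not at h
  -- the perp of `v` is alternating and non-zero
  obtain ⟨u, hu0, huv⟩ : ∃ u, u ≠ 0 ∧ B v u = 0 := by
    have h3 := LinearMap.finrank_range_add_finrank_ker (B v)
    have h4 : finrank F (LinearMap.range (B v)) ≤ 1 := by
      have := Submodule.finrank_le (LinearMap.range (B v))
      rwa [finrank_self] at this
    have h5 : LinearMap.ker (B v) ≠ ⊥ := by
      intro h6
      rw [h6, finrank_bot] at h3
      omega
    obtain ⟨u, hu, hu0⟩ := (Submodule.ne_bot_iff _).1 h5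
    exact ⟨u, hu0, LinearMap.mem_ker.1 hu⟩
  have hsymm : ∀ x y, B x y = B y x := fun x y => hS.eq x y
  obtain ⟨y, hy⟩ : ∃ y, B u y ≠ 0 := by
    by_contra hcon
    push Not at hcon
    exact hu0 (hB.1 u hcon)
  have hone : (1 : F) + 1 = 0 := by rw [one_add_one_eq_two]; exact h2
  -- correct `y` to lie in the perp of `v`
  obtain ⟨y', hvy', huy'⟩ : ∃ y', B v y' = 0 ∧ B u y' = 1 := by
    refine ⟨(B u y)⁻¹ • (y - B v y • v), ?_, ?_⟩
    · simp only [map_smul, map_sub, hvv, smul_eq_mul]; ring
    · simp only [map_smul, map_sub, hsymm u v, huv, smul_eq_mul, mul_zero, sub_zero,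
        inv_mul_cancel₀ hy]
  have huu : B u u = 0 := h u huv
  have hyy : B y' y' = 0 := h y' hvy'
  refine ⟨v + u, ?_, v + y', ?_, ?_⟩
  · simp only [map_add, LinearMap.add_apply, hvv, huv, hsymm u v, huu]; ring
  · simp only [map_add, LinearMap.add_apply, hvv, hvy', hsymm u v, huv, huy']
    rw [add_zero, zero_add]; exact hone
  · simp only [map_add, LinearMap.add_apply, hvv, hvy', hsymm y' v, hyy]
    simp

theorem albert {F : Type u} [Field F] [Finite F] (h2 : (2 : F) = 0) : ∀ (n : ℕ) (V : Type v)
    [AddCommGroup V] [Module F V] [FiniteDimensional F V] (B : LinearMap.BilinForm F V),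
    B.IsSymm → B.Nondegenerate → (∃ v : V, B v v ≠ 0) → finrank F V = n + 1 →
    ∃ b : Fin (n + 1) → V, ∀ i j, B (b i) (b j) = if i = j then 1 else 0 := by
  intro n
  induction n with
  | zero =>
    intro V _ _ _ B hS hB hna hd
    obtain ⟨w, hw⟩ := hna
    obtain ⟨s, hs⟩ := isSquare_of_two_eq_zero h2 (B w w)
    have hs0 : s ≠ 0 := by rintro rfl; rw [mul_zero] at hs; exact hw hs
    refine ⟨fun _ => s⁻¹ • w, fun i j => ?_⟩
    rw [if_pos (Subsingleton.elim (α := Fin 1) i j)]
    simp only [map_smul, LinearMap.smul_apply, hs, smul_eq_mul]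
    field_simp
  | succ n ih =>
    intro V _ _ _ B hS hB hna hd
    obtain ⟨v, hvv, x, hvx, hxx⟩ := albert_step h2 B hS hB hna (by omega)
    have hvv' : B v v ≠ 0 := by rw [hvv]; exact one_ne_zero
    set W := B.orthogonal (F ∙ v) with hW
    have hmem : ∀ y, y ∈ W ↔ B v y = 0 := by
      intro y
      rw [hW, LinearMap.BilinForm.mem_orthogonal_iff]
      constructor
      · intro h; exact h v (Submodule.mem_span_singleton_self v)
      · intro h z hz
        obtain ⟨c, rfl⟩ := Submodule.mem_span_singleton.1 hz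
        change B (c • v) y = 0
        rw [map_smul, LinearMap.smul_apply, h, smul_zero]
    have hv0 : v ≠ 0 := by rintro rfl; rw [map_zero] at hvv'; exact hvv' rfl
    have hfin : finrank F W = n + 1 := by
      have h1 := Submodule.finrank_add_eq_of_isCompl
        (LinearMap.BilinForm.isCompl_span_singleton_orthogonal hvv')
      rw [finrank_span_singleton hv0, hd, ← hW] at h1
      omega
    obtain ⟨b, hb⟩ := ih W (B.restrict W) ⟨fun x y => hS.eq x y⟩
      (LinearMap.BilinForm.restrict_nondegenerate_orthogonal_spanSingleton B hB hS.isRefl hvv')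
      ⟨⟨x, (hmem x).2 hvx⟩, hxx⟩ hfin
    refine ⟨Fin.cons v (fun i => (b i : V)), fun i j => ?_⟩
    refine Fin.cases ?_ (fun i => ?_) i <;> refine Fin.cases ?_ (fun j => ?_) j
    · rw [Fin.cons_zero, hvv, if_pos rfl]
    · rw [Fin.cons_zero, Fin.cons_succ, (hmem _).1 (b j).2, if_neg (Fin.succ_ne_zero j).symm]
    · rw [Fin.cons_zero, Fin.cons_succ, ← hS.eq, (hmem _).1 (b i).2,
        if_neg (Fin.succ_ne_zero i)]
    · rw [Fin.cons_succ, Fin.cons_succ]
      have := hb i j
      rw [LinearMap.BilinForm.restrict_apply, LinearMap.domRestrict_apply] at this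
      rw [this]
      simp

theorem exists_orthonormal_basis {F : Type u} {V : Type v} [Field F] [AddCommGroup V] [Module F V]
    [FiniteDimensional F V] {n : ℕ} (hV : finrank F V = n) (B : LinearMap.BilinForm F V)
    (b : Fin n → V) (hb : ∀ i j, B (b i) (b j) = if i = j then 1 else 0) :
    ∃ b : Module.Basis (Fin n) F V, ∀ i j, B (b i) (b j) = if i = j then 1 else 0 := by
  have hli : LinearIndependent F b := by
    rw [Fintype.linearIndependent_iff]
    intro c hc i
    have h1 := congrArg (B (b i)) hc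
    simp only [map_sum, map_smul, hb, smul_eq_mul, mul_ite, mul_one, mul_zero, map_zero] at h1
    simpa using h1
  cases n with
  | zero =>
    haveI : Subsingleton V := finrank_zero_iff.1 hV
    exact ⟨Module.Basis.empty V, fun i => i.elim0⟩
  | succ n =>
    refine ⟨basisOfLinearIndependentOfCardEqFinrank hli (by rw [Fintype.card_fin, hV]), fun i j => ?_⟩
    rw [coe_basisOfLinearIndependentOfCardEqFinrank]
    exact hb i j

end Cfsg.Agent.Orth
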