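import Mathlib

/-!
Fixed fields of automorphisms of finite fields, and matrices fixed modulo scalars.
-/

set_option autoImplicit false

namespace Cfsg.Agent.Orth

open Matrix

/-- The fixed field of an automorphism. -/
def fixF {F : Type*} [Field F] (σ : F ≃+* F) : Subfield F where
  carrier := {x | σ x = x}
  mul_mem' := fun {a b} ha hb => by
    change σ (a * b) = a * b
    rw [map_mul, show σ a = a from ha, show σ b = b from hb]
  one_mem' := map_one σ
  add_mem' := fun {a b} ha hb => by
    change σ (a + b) = a + b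
    rw [map_add, show σ a = a from ha, show σ b = b from hb]
  zero_mem' := map_zero σ
  neg_mem' := fun {a} ha => by
    change σ (-a) = -a
    rw [map_neg, show σ a = a from ha]
  inv_mem' := fun a ha => by
    change σ a⁻¹ = a⁻¹
    rw [map_inv₀, show σ a = a from ha]

theorem mem_fixF {F : Type*} [Field F] {σ : F ≃+* F} {x : F} : x ∈ fixF σ ↔ σ x = x := Iff.rfl

theorem card_fixF {F : Type*} [Field F] [Finite F] (σ : F ≃+* F) :
    Nat.card (fixF σ) ^ orderOf σ = Nat.card F := by
  classical
  haveI : Finite (F ≃+* F) := Finite.of_injective (fun e : F ≃+* F => (e : F → F)) DFunLike.coe_injective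
  set G := Subgroup.zpowers (σ : RingAut F) with hG
  haveI : Fintype G := Fintype.ofFinite G
  haveI : FaithfulSMul G F := ⟨fun {a b} h => Subtype.ext (RingEquiv.ext h)⟩
  have h1 : fixF σ = FixedPoints.subfield G F := by
    ext x
    constructor
    · intro hx g
      obtain ⟨g, hg⟩ := g
      have : g ∈ MulAction.stabilizer (RingAut F) x := by
        refine (?_ : Subgroup.zpowers (σ : RingAut F) ≤ _) hg
        rw [Subgroup.zpowers_le]
        exact hx
      exact this
    · intro hx
      exact hx ⟨σ, Subgroup.mem_zpowers σ⟩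
  have h2 := FixedPoints.finrank_eq_card G F
  have h3 : Nat.card F = Nat.card (FixedPoints.subfield G F) ^ Module.finrank (FixedPoints.subfield G F) F := by
    exact Module.natCard_eq_pow_finrank
  rw [h3, h1, h2, ← Nat.card_eq_fintype_card, hG, Nat.card_zpowers]

/-- Scalars times matrices over the fixed field. -/
noncomputable def scalF {F : Type*} [Field F] (σ : F ≃+* F) (n : ℕ) :
    Fˣ × GL (Fin n) (fixF σ) →* GL (Fin n) F :=
  MonoidHom.noncommCoprod (GeneralLinearGroup.scalar (Fin n))
    (GeneralLinearGroup.map (fixF σ).subtype)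
    (fun u g => show Commute _ _ from GeneralLinearGroup.scalar_commute u _)

theorem scalF_apply {F : Type*} [Field F] (σ : F ≃+* F) (n : ℕ) (u : Fˣ) (g : GL (Fin n) (fixF σ))
    (i j : Fin n) : (scalF σ n (u, g) : Matrix (Fin n) (Fin n) F) i j =
      (u : F) * ((g : Matrix (Fin n) (Fin n) (fixF σ)) i j : F) := by
  change ((GeneralLinearGroup.scalar (Fin n) u : Matrix (Fin n) (Fin n) F) *
    (GeneralLinearGroup.map (fixF σ).subtype g : Matrix (Fin n) (Fin n) F)) i j = _
  rw [GeneralLinearGroup.coe_scalar, Matrix.scalar_apply, Matrix.diagonal_mul]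
  rfl

theorem mem_range_scalF {F : Type*} [Field F] (σ : F ≃+* F) {n : ℕ} (hn : 1 ≤ n) (g : GL (Fin n) F) :
    g ∈ (scalF σ n).range ↔
      ∃ c : F, c ≠ 0 ∧ (g : Matrix (Fin n) (Fin n) F).map σ = c • (g : Matrix (Fin n) (Fin n) F) := by
  constructor
  · rintro ⟨⟨u, g₀⟩, rfl⟩
    refine ⟨σ u * (u : F)⁻¹, mul_ne_zero ((map_ne_zero σ).2 u.ne_zero) (inv_ne_zero u.ne_zero), ?_⟩
    ext i j
    rw [Matrix.map_apply, Matrix.smul_apply, scalF_apply, map_mul, smul_eq_mul]
    have h1 : σ ((g₀ : Matrix (Fin n) (Fin n) (fixF σ)) i j : F) =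
        ((g₀ : Matrix (Fin n) (Fin n) (fixF σ)) i j : F) :=
      mem_fixF.1 ((g₀ : Matrix (Fin n) (Fin n) (fixF σ)) i j).2
    rw [h1, mul_assoc, inv_mul_cancel_left₀ u.ne_zero]
  · rintro ⟨c, hc, hg⟩
    -- a non-zero entry
    obtain ⟨i, j, hij⟩ : ∃ i j, (g : Matrix (Fin n) (Fin n) F) i j ≠ 0 := by
      by_contra hcon
      push Not at hcon
      have h0 : (g : Matrix (Fin n) (Fin n) F) = 0 := by
        ext i j; exact hcon i j
      haveI : Nonempty (Fin n) := ⟨⟨0, hn⟩⟩
      have h1 : IsUnit (g : Matrix (Fin n) (Fin n) F) := g.isUnit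
      rw [h0, isUnit_zero_iff] at h1
      exact zero_ne_one h1
    set d := (g : Matrix (Fin n) (Fin n) F) i j with hd
    have hσ : ∀ k l, σ ((g : Matrix (Fin n) (Fin n) F) k l) = c * (g : Matrix (Fin n) (Fin n) F) k l := by
      intro k l
      have := congrFun (congrFun hg k) l
      exact this
    have hfix : ∀ k l, d⁻¹ * (g : Matrix (Fin n) (Fin n) F) k l ∈ fixF σ := by
      intro k l
      rw [mem_fixF, map_mul, map_inv₀, hσ, hd, hσ, ← hd]
      field_simp
    set M : Matrix (Fin n) (Fin n) (fixF σ) :=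
      Matrix.of fun k l => ⟨d⁻¹ * (g : Matrix (Fin n) (Fin n) F) k l, hfix k l⟩ with hM
    have hMg : M.map (fixF σ).subtype = d⁻¹ • (g : Matrix (Fin n) (Fin n) F) := by
      ext k l
      rfl
    have hdet : M.det ≠ 0 := by
      intro h0
      have h1 : (M.map (fixF σ).subtype).det = 0 := by
        have := RingHom.map_det (fixF σ).subtype M
        rw [h0, map_zero] at this
        exact this.symm
      rw [hMg, Matrix.det_smul] at h1
      have h2 : (g : Matrix (Fin n) (Fin n) F).det ≠ 0 :=
        ((Matrix.isUnit_iff_isUnit_det _).1 g.isUnit).ne_zero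
      exact (mul_ne_zero (pow_ne_zero _ (inv_ne_zero hij)) h2) h1
    refine ⟨(Units.mk0 d hij, GeneralLinearGroup.mkOfDetNeZero M hdet), ?_⟩
    ext k l
    rw [scalF_apply]
    change d * (d⁻¹ * (g : Matrix (Fin n) (Fin n) F) k l) = _
    rw [mul_inv_cancel_left₀ hij]

theorem card_ker_scalF {F : Type*} [Field F] (σ : F ≃+* F) {n : ℕ} (hn : 1 ≤ n) :
    Nat.card (scalF σ n).ker = Nat.card (fixF σ)ˣ := by
  symm
  set ι : (fixF σ)ˣ →* Fˣ × GL (Fin n) (fixF σ) :=
    MonoidHom.prod (Units.map ((fixF σ).subtype : (fixF σ) →* F))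
      ((GeneralLinearGroup.scalar (Fin n)).comp (MulEquiv.inv (fixF σ)ˣ).toMonoidHom) with hι
  have hιr : ι.range = (scalF σ n).ker := by
    apply le_antisymm
    · rintro _ ⟨u, rfl⟩
      rw [MonoidHom.mem_ker]
      ext k l
      rw [hι, MonoidHom.prod_apply, scalF_apply]
      change ((u : fixF σ) : F) * (((Matrix.scalar (Fin n) ((u⁻¹ : (fixF σ)ˣ) : fixF σ)) k l : fixF σ) : F) = _
      rw [Matrix.scalar_apply, Matrix.diagonal_apply]
      change _ = (1 : Matrix (Fin n) (Fin n) F) k l
      rw [Matrix.one_apply]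
      split_ifs
      · rw [← Subfield.coe_mul, Units.mul_inv]; rfl
      · rw [Subfield.coe_zero, mul_zero]
    · rintro ⟨u, g⟩ hu
      rw [MonoidHom.mem_ker] at hu
      have h1 : ∀ k l, (u : F) * ((g : Matrix (Fin n) (Fin n) (fixF σ)) k l : F)
          = (1 : Matrix (Fin n) (Fin n) F) k l := by
        intro k l
        rw [← scalF_apply, hu]; rfl
      have h2 := h1 ⟨0, hn⟩ ⟨0, hn⟩
      rw [Matrix.one_apply_eq] at h2
      set a := (g : Matrix (Fin n) (Fin n) (fixF σ)) ⟨0, hn⟩ ⟨0, hn⟩ with ha
      have ha0 : a ≠ 0 := by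
        intro h0
        rw [h0, Subfield.coe_zero, mul_zero] at h2
        exact zero_ne_one h2
      have hua : (u : F) = ((a⁻¹ : fixF σ) : F) := by
        rw [Subfield.coe_inv]
        exact eq_inv_of_mul_eq_one_left h2
      refine ⟨(Units.mk0 a ha0)⁻¹, ?_⟩
      rw [hι, MonoidHom.prod_apply, Prod.mk.injEq]
      constructor
      · ext
        rw [hua]
        rfl
      · ext k l
        have h3 := h1 k l
        rw [hua] at h3
        change ((Matrix.scalar (Fin n) ((((Units.mk0 a ha0)⁻¹)⁻¹ : (fixF σ)ˣ) : fixF σ)) k l : F) = _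
        rw [inv_inv, Units.val_mk0, Matrix.scalar_apply, Matrix.diagonal_apply]
        rw [Matrix.one_apply] at h3
        have ha0' : (a : F) ≠ 0 := by
          intro h; exact ha0 (Subtype.ext h)
        rw [Subfield.coe_inv] at h3
        split_ifs at h3 ⊢
        · have : ((g : Matrix (Fin n) (Fin n) (fixF σ)) k l : F) = a := by
            field_simp at h3
            exact h3
          exact this.symm
        · rcases mul_eq_zero.1 h3 with h4 | h4
          · exact absurd h4 (inv_ne_zero ha0')
          · rw [h4]; rfl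
  have hinj : Function.Injective ι := by
    intro u v huv
    have := congrArg Prod.fst huv
    ext
    have h2 := congrArg Units.val this
    exact h2
  rw [← hιr]
  exact Nat.card_congr (MonoidHom.ofInjective hinj).toEquiv

theorem card_range_scalF {F : Type*} [Field F] [Finite F] (σ : F ≃+* F) {n : ℕ} (hn : 1 ≤ n) :
    Nat.card (scalF σ n).range * (Nat.card (fixF σ) - 1) =
      (Nat.card F - 1) * Nat.card (GL (Fin n) (fixF σ)) := by
  have h1 := Subgroup.card_eq_card_quotient_mul_card_subgroup (scalF σ n).ker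
  rw [Nat.card_congr (QuotientGroup.quotientKerEquivRange (scalF σ n)).toEquiv, card_ker_scalF σ hn,
    Nat.card_prod, Nat.card_units, Nat.card_units] at h1
  exact h1.symm

end Cfsg.Agent.Orth
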