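import Cfsg.Agent.Orth.Pairs

/-!
The commutator subgroup is generated by the squares `(r_u r_v)²`; uniqueness of the index two subgroup of
the special orthogonal group.
-/

set_option autoImplicit false

namespace Cfsg.Agent.Orth

open QuadraticMap Module

/-- In a group generated by a normal set of involutions the commutator subgroup is contained in each
subgroup which contains all `(s t)²`. -/
theorem commutator_le_of_involutions {G : Type*} [Group G] {S : Set G}
    (hS : Subgroup.closure S = ⊤) (h1 : ∀ s ∈ S, s * s = 1)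
    (hc : ∀ g, ∀ s ∈ S, g * s * g⁻¹ ∈ S) {K : Subgroup G}
    (hK : ∀ s ∈ S, ∀ t ∈ S, (s * t) * (s * t) ∈ K) : commutator G ≤ K := by
  set T : Set G := {x | ∃ s ∈ S, ∃ t ∈ S, x = (s * t) * (s * t)} with hT
  have hTK : Subgroup.closure T ≤ K := by
    rw [Subgroup.closure_le]
    rintro _ ⟨s, hs, t, ht, rfl⟩
    exact hK s hs t ht
  refine le_trans ?_ hTK
  haveI hn : (Subgroup.closure T).Normal := by
    constructor
    intro x hx g
    induction hx using Subgroup.closure_induction with
    | mem x hx =>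
      obtain ⟨s, hs, t, ht, rfl⟩ := hx
      refine Subgroup.subset_closure ⟨g * s * g⁻¹, hc g s hs, g * t * g⁻¹, hc g t ht, ?_⟩
      group
    | one => rw [mul_one, mul_inv_cancel]; exact one_mem _
    | mul x y _ _ hx hy =>
      have : g * (x * y) * g⁻¹ = (g * x * g⁻¹) * (g * y * g⁻¹) := by group
      rw [this]; exact mul_mem hx hy
    | inv x _ hx =>
      have : g * x⁻¹ * g⁻¹ = (g * x * g⁻¹)⁻¹ := by group
      rw [this]; exact inv_mem hx
  set π := QuotientGroup.mk' (Subgroup.closure T) with hπ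
  have hgen : Subgroup.closure (π '' S) = ⊤ := by
    rw [← MonoidHom.map_closure, hS, ← MonoidHom.range_eq_map]
    exact MonoidHom.range_eq_top.2 (QuotientGroup.mk'_surjective _)
  have hcomm : ∀ s ∈ S, ∀ t ∈ S, π s * π t = π t * π s := by
    intro s hs t ht
    have h2 : π ((s * t) * (s * t)) = 1 :=
      (QuotientGroup.eq_one_iff _).2 (Subgroup.subset_closure ⟨s, hs, t, ht, rfl⟩)
    rw [_root_.map_mul, mul_eq_one_iff_eq_inv, _root_.map_mul, mul_inv_rev] at h2
    have h3 : ∀ s ∈ S, (π s)⁻¹ = π s := by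
      intro s hs
      rw [inv_eq_iff_mul_eq_one, ← _root_.map_mul, h1 s hs, _root_.map_one]
    rw [h3 s hs, h3 t ht] at h2
    exact h2
  have hcen : ∀ x : G ⧸ Subgroup.closure T, x ∈ Subgroup.center (G ⧸ Subgroup.closure T) := by
    have h4 : ∀ s ∈ S, π s ∈ Subgroup.center (G ⧸ Subgroup.closure T) := by
      intro s hs
      rw [Subgroup.mem_center_iff]
      intro y
      have hy : y ∈ Subgroup.closure (π '' S) := hgen ▸ Subgroup.mem_top y
      have h5 : Subgroup.closure (π '' S) ≤ Subgroup.centralizer {π s} := by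
        rw [Subgroup.closure_le]
        rintro _ ⟨t, ht, rfl⟩
        rw [SetLike.mem_coe, Subgroup.mem_centralizer_iff]
        intro z hz
        rw [Set.mem_singleton_iff] at hz
        rw [hz]
        exact hcomm s hs t ht
      exact ((Subgroup.mem_centralizer_iff.1 (h5 hy)) (π s) rfl).symm
    intro x
    have hx : x ∈ Subgroup.closure (π '' S) := hgen ▸ Subgroup.mem_top x
    refine (?_ : Subgroup.closure (π '' S) ≤ Subgroup.center _) hx
    rw [Subgroup.closure_le]
    rintro _ ⟨t, ht, rfl⟩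
    exact h4 t ht
  rw [← Subgroup.Normal.quotient_commutative_iff_commutator_le]
  exact ⟨⟨fun x y => ((Subgroup.mem_center_iff.1 (hcen x)) y).symm⟩⟩

variable {F V : Type*} [Field F] [AddCommGroup V] [Module F V]

theorem commutator_le_of_sq {Q : QuadraticForm F V} (hR : RGrp Q = ⊤) {K : Subgroup (OGrp Q)}
    (hK : ∀ u v (hu : Q u ≠ 0) (hv : Q v ≠ 0),
      (refl Q u hu * refl Q v hv) * (refl Q u hu * refl Q v hv) ∈ K) :
    commutator (OGrp Q) ≤ K := by
  refine commutator_le_of_involutions (S := {g | ∃ v, ∃ hv : Q v ≠ 0, g = refl Q v hv}) ?_ ?_ ?_ ?_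
  · exact hR
  · rintro _ ⟨v, hv, rfl⟩
    exact refl_mul_self hv
  · rintro g _ ⟨v, hv, rfl⟩
    exact ⟨_, _, refl_conj g v hv⟩
  · rintro _ ⟨u, hu, rfl⟩ _ ⟨v, hv, rfl⟩
    exact hK u v hu hv

section Matrix

variable {ι : Type} [Fintype ι] [DecidableEq ι] {F : Type*} [Field F]

theorem mem_special_iff {Q : QuadraticForm F (ι → F)} {g : ↥(Cfsg.isometryGroup F ⇑Q)}
    {l : List {v : ι → F // Q v ≠ 0}} (h : bridge Q g = reflProd Q l) :
    g ∈ Cfsg.specialIsometryGroup F ⇑Q ↔ Even l.length ∨ (2 : F) = 0 := by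
  have h1 : g ∈ Cfsg.specialIsometryGroup F ⇑Q ↔
      ((g : Matrix.GeneralLinearGroup ι F) : Matrix ι ι F).det = 1 := by
    rw [Cfsg.specialIsometryGroup, MonoidHom.mem_ker, MonoidHom.comp_apply, Units.ext_iff]
    exact Iff.rfl
  rw [h1, det_of_reflProd Q g l h]
  rcases Nat.even_or_odd l.length with he | ho
  · rw [he.neg_one_pow]; simp [he]
  · rw [ho.neg_one_pow]
    constructor
    · intro h2
      right
      linear_combination -h2
    · rintro (h2 | h2)
      · exact absurd h2 (Nat.not_even_iff_odd.2 ho)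
      · linear_combination -h2

theorem mem_special_mul {Q : QuadraticForm F (ι → F)} {u v : ι → F} (hu : Q u ≠ 0) (hv : Q v ≠ 0) :
    (bridge Q).symm (refl Q u hu * refl Q v hv) ∈ Cfsg.specialIsometryGroup F ⇑Q := by
  refine (mem_special_iff (l := [⟨u, hu⟩, ⟨v, hv⟩]) ?_).2 (Or.inl (by simp))
  rw [MulEquiv.apply_symm_apply, reflProd_cons, reflProd_cons, reflProd_nil, mul_one]

theorem special_index_even (Q : QuadraticForm F (ι → F)) (hR : RGrp Q = ⊤) (h2 : (2 : F) = 0) :
    (Cfsg.specialIsometryGroup F ⇑Q).index = 1 := by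
  rw [Subgroup.index_eq_one, Subgroup.eq_top_iff']
  intro g
  obtain ⟨l, hl⟩ := exists_reflProd hR (bridge Q g)
  exact (mem_special_iff hl.symm).2 (Or.inr h2)

theorem special_index_odd {Q : QuadraticForm F (ι → F)} (hR : RGrp Q = ⊤) (h2 : (2 : F) ≠ 0)
    {v : ι → F} (hv : Q v ≠ 0) :
    (Cfsg.specialIsometryGroup F ⇑Q).index = 2 := by
  rw [Subgroup.index_eq_two_iff]
  refine ⟨(bridge Q).symm (refl Q v hv), fun g => ?_⟩
  obtain ⟨l, hl⟩ := exists_reflProd hR (bridge Q g)
  have h1 : bridge Q (g * (bridge Q).symm (refl Q v hv)) = reflProd Q (l ++ [⟨v, hv⟩]) := by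
    rw [_root_.map_mul, MulEquiv.apply_symm_apply, reflProd_append, hl, reflProd_cons, reflProd_nil, mul_one]
  rw [mem_special_iff h1, mem_special_iff hl.symm, or_iff_left h2, or_iff_left h2, List.length_append,
    List.length_singleton, Nat.even_add_one]
  by_cases h : Even l.length
  · exact Or.inr ⟨h, not_not.2 h⟩
  · exact Or.inl ⟨h, h⟩

/-- Uniqueness of the index two subgroup of the special orthogonal group. -/
theorem unique_index_two [Finite F] {Q : QuadraticForm F (ι → F)}
    (hQ : (polarBilin Q).Nondegenerate) (hn : 2 ≤ finrank F (ι → F)) (hR : RGrp Q = ⊤) :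
    ∃! H : Subgroup ↥(Cfsg.specialIsometryGroup F ⇑Q), H.index = 2 := by
  set S := Cfsg.specialIsometryGroup F ⇑Q with hSdef
  set C := Cfsg.Omega F ⇑Q with hCdef
  have hnt : Nontrivial (ι → F) := Module.nontrivial_of_finrank_pos (R := F) (by omega)
  obtain ⟨v, hv⟩ := exists_q_ne_zero hQ hnt
  have hidx : C.index = 2 * S.index := by
    rw [hCdef, index_Omega]
    by_cases h2 : (2 : F) = 0
    · rw [index_commutator_even hQ h2 (by omega) hR, hSdef, special_index_even Q hR h2]
    · rw [index_commutator_odd hQ h2 hn, hSdef, special_index_odd hR h2 hv]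
  have hS0 : S.index ≠ 0 := by
    by_cases h2 : (2 : F) = 0
    · rw [hSdef, special_index_even Q hR h2]; exact one_ne_zero
    · rw [hSdef, special_index_odd hR h2 hv]; exact two_ne_zero
  have hCS : C ≤ S := by
    intro g hg
    obtain ⟨l, hl⟩ := exists_reflProd hR (bridge Q g)
    exact (mem_special_iff hl.symm).2 (Or.inl ((mem_Omega_iff_of_list hQ hR g l hl.symm).1 hg).1)
  have hrel : (C.subgroupOf S).index = 2 := by
    have h1 := Subgroup.relIndex_mul_index hCS
    rw [hidx] at h1
    exact Nat.eq_of_mul_eq_mul_right (Nat.pos_of_ne_zero hS0) h1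
  refine ⟨C.subgroupOf S, hrel, ?_⟩
  intro H hH
  have hle : C.subgroupOf S ≤ H := by
    have h1 : C ≤ H.map S.subtype := by
      have h2 : commutator (OGrp Q) ≤ (H.map S.subtype).map
          (bridge Q : ↥(Cfsg.isometryGroup F ⇑Q) →* ↥(OGrp Q)) := by
        refine commutator_le_of_sq hR fun u w hu hw => ?_
        have h3 : (⟨_, mem_special_mul hu hw⟩ : S) * ⟨_, mem_special_mul hu hw⟩ ∈ H :=
          Subgroup.mul_self_mem_of_index_two hH _
        refine ⟨_, ⟨_, h3, rfl⟩, ?_⟩
        rw [Subgroup.coe_subtype, Subgroup.coe_mul]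
        change bridge Q (_ * _) = _
        rw [_root_.map_mul, MulEquiv.apply_symm_apply]
      intro g hg
      have h4 := h2 ((mem_Omega_iff Q g).1 hg)
      obtain ⟨x, hx, hxg⟩ := h4
      have : x = g := (bridge Q).injective hxg
      rw [← this]
      exact hx
    intro g hg
    obtain ⟨x, hx, hxg⟩ := h1 (Subgroup.mem_subgroupOf.1 hg)
    have : x = g := Subtype.ext hxg
    rw [← this]
    exact hx
  have h5 := Subgroup.relIndex_mul_index hle
  rw [hrel, hH] at h5
  have h6 : (C.subgroupOf S).relIndex H = 1 := by omega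
  exact le_antisymm (Subgroup.relIndex_eq_one.1 h6) hle

end Matrix

end Cfsg.Agent.Orth
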