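import Mathlib

/-!
Lang's theorem for `GL_n` over an algebraically closed field: Frobenius-semilinear injective maps have
bases of fixed vectors.
-/

set_option autoImplicit false

namespace Cfsg.Agent.Orth

open Polynomial Module

section Lang

variable {K : Type*} [Field K] [IsAlgClosed K] {V : Type*} [AddCommGroup V] [Module K V]

/-- The recursively defined additive polynomials. -/
noncomputable def langPoly (q : ℕ) (a : ℕ → K) : ℕ → K[X]
  | 0 => C (a 0) * X ^ q
  | (i + 1) => (langPoly q a i) ^ q + C (a (i + 1)) * X ^ q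

theorem langPoly_dvd {q : ℕ} (hq : 1 ≤ q) (a : ℕ → K) (i : ℕ) : X ^ q ∣ langPoly q a i := by
  induction i with
  | zero => exact dvd_mul_left _ _
  | succ i ih =>
    refine dvd_add (dvd_trans ih (dvd_pow_self _ (by omega))) (dvd_mul_left _ _)

theorem langPoly_eq_zero {q : ℕ} (hq : 2 ≤ q) (a : ℕ → K) (i : ℕ) (h : langPoly q a i = 0) :
    ∀ j ≤ i, a j = 0 := by
  induction i with
  | zero =>
    intro j hj
    obtain rfl : j = 0 := by omega
    have h1 : C (a 0) * X ^ q = (0 : K[X]) := h
    rcases mul_eq_zero.1 h1 with h2 | h2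
    · exact C_eq_zero.1 h2
    · exact absurd h2 (pow_ne_zero _ X_ne_zero)
  | succ i ih =>
    have h1 : (langPoly q a i) ^ q + C (a (i + 1)) * X ^ q = 0 := h
    obtain ⟨d, hd⟩ := langPoly_dvd (by omega : 1 ≤ q) a i
    have h2 : a (i + 1) = 0 := by
      have h3 := congrArg (fun P : K[X] => P.coeff q) h1
      simp only [coeff_add, coeff_C_mul, coeff_X_pow, if_true, mul_one, coeff_zero] at h3
      have h4 : ((langPoly q a i) ^ q).coeff q = 0 := by
        rw [hd, mul_pow, ← pow_mul, mul_comm, coeff_mul_X_pow']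
        rw [if_neg]
        have : q * 2 ≤ q * q := Nat.mul_le_mul_left q hq
        omega
      rw [h4, zero_add] at h3
      exact h3
    rw [h2, C_0, zero_mul, add_zero] at h1
    intro j hj
    rcases Nat.lt_or_ge j (i + 1) with h5 | h5
    · exact ih (pow_eq_zero_iff (by omega) |>.1 h1) j (by omega)
    · obtain rfl : j = i + 1 := by omega
      exact h2

theorem exists_lang_root {q : ℕ} (hq : 2 ≤ q) (a : ℕ → K) (i : ℕ) (h : ∃ j ≤ i, a j ≠ 0) :
    ∃ t : K, t ≠ 0 ∧ (langPoly q a i).eval t = t := by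
  obtain ⟨d, hd⟩ := langPoly_dvd (by omega : 1 ≤ q) a i
  have hd0 : d ≠ 0 := by
    rintro rfl
    rw [mul_zero] at hd
    obtain ⟨j, hj, hj0⟩ := h
    exact hj0 (langPoly_eq_zero hq a i hd j hj)
  have hdeg : (X ^ (q - 1) * d - 1 : K[X]).degree ≠ 0 := by
    have h1 : (1 : K[X]).degree < (X ^ (q - 1) * d : K[X]).degree := by
      rw [degree_one, degree_mul, degree_X_pow, degree_eq_natDegree hd0]
      have : 0 < (q - 1) + d.natDegree := by omega
      exact_mod_cast this
    rw [degree_sub_eq_left_of_degree_lt h1]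
    rw [degree_one] at h1
    exact h1.ne'
  obtain ⟨t, ht⟩ := IsAlgClosed.exists_root _ hdeg
  have ht' : t ^ (q - 1) * d.eval t = 1 := by
    have : (X ^ (q - 1) * d - 1 : K[X]).eval t = 0 := ht
    rw [eval_sub, eval_mul, eval_pow, eval_X, eval_one] at this
    exact sub_eq_zero.1 this
  refine ⟨t, ?_, ?_⟩
  · rintro rfl
    rw [zero_pow (by omega), zero_mul] at ht'
    exact zero_ne_one ht'
  · rw [hd, eval_mul, eval_pow, eval_X]
    have : t ^ q = t * t ^ (q - 1) := by rw [← pow_succ']; congr 1; omega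
    rw [this, mul_assoc, ht', mul_one]

/-- A semilinear (with respect to `x ↦ x ^ q`) injective map has a non-zero fixed vector. -/
theorem exists_fixed_vector [FiniteDimensional K V] [Nontrivial V] {q : ℕ} (hq : 2 ≤ q)
    {σ : K →+* K} (hσ : ∀ x, σ x = x ^ q) (φ : V →ₛₗ[σ] V) (hφ : Function.Injective φ) :
    ∃ w : V, w ≠ 0 ∧ φ w = w := by
  classical
  obtain ⟨v, hv⟩ := exists_ne (0 : V)
  -- maximal `k` with `v, φ v, …, φ^(k-1) v` independent
  have hex : ∃ k, ¬ LinearIndependent K (fun i : Fin k => φ^[(i : ℕ)] v) := by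
    refine ⟨finrank K V + 1, fun h => ?_⟩
    have := h.fintype_card_le_finrank
    rw [Fintype.card_fin] at this
    omega
  set k := Nat.find hex with hk
  have hk1 : ¬ LinearIndependent K (fun i : Fin k => φ^[(i : ℕ)] v) := Nat.find_spec hex
  have hmin : ∀ j < k, LinearIndependent K (fun i : Fin j => φ^[(i : ℕ)] v) := fun j hj => by
    have := Nat.find_min hex hj
    exact not_not.1 this
  have hk2 : 2 ≤ k := by
    by_contra hlt
    have : k = 0 ∨ k = 1 := by omega
    rcases this with h0 | h0
    · rw [h0] at hk1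
      exact hk1 linearIndependent_empty_type
    · rw [h0] at hk1
      apply hk1
      rw [linearIndependent_unique_iff]
      exact hv
  obtain ⟨m, hm⟩ : ∃ m, k = m + 2 := ⟨k - 2, by omega⟩
  have hli : LinearIndependent K (fun i : Fin (m + 1) => φ^[(i : ℕ)] v) := hmin _ (by omega)
  rw [hm] at hk1
  have hmem : φ^[m + 1] v ∈ Submodule.span K (Set.range (fun i : Fin (m + 1) => φ^[(i : ℕ)] v)) := by
    by_contra hcon
    apply hk1
    rw [linearIndependent_fin_succ']
    refine ⟨hli, ?_⟩
    intro hmem'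
    apply hcon
    exact hmem'
  obtain ⟨c, hc⟩ := (Submodule.mem_span_range_iff_exists_fun K).1 hmem
  set a : ℕ → K := fun i => if h : i < m + 1 then c ⟨i, h⟩ else 0 with ha
  have hc' : φ^[m + 1] v = ∑ i ∈ Finset.range (m + 1), a i • φ^[i] v := by
    rw [← hc, Finset.sum_range]
    refine Finset.sum_congr rfl fun i _ => ?_
    have : a (i : ℕ) = c i := by
      rw [ha]
      exact dif_pos i.2
    rw [this]
  have hne : ∃ j ≤ m, a j ≠ 0 := by
    by_contra hcon
    push Not at hcon
    have h1 : φ^[m + 1] v = 0 := by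
      rw [hc']
      refine Finset.sum_eq_zero fun i hi => ?_
      rw [hcon i (by have := Finset.mem_range.1 hi; omega), zero_smul]
    have h2 : ∀ n, φ^[n] v ≠ 0 := by
      intro n
      induction n with
      | zero => exact hv
      | succ n ih =>
        rw [Function.iterate_succ_apply']
        intro h3
        apply ih
        apply hφ
        rw [h3, map_zero]
    exact h2 _ h1
  obtain ⟨t, ht0, ht⟩ := exists_lang_root hq a m hne
  set e : ℕ → K := fun i => (langPoly q a i).eval t with he
  have he0 : e 0 = t ^ q * a 0 := by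
    change (C (a 0) * X ^ q : K[X]).eval t = _
    rw [eval_mul, eval_C, eval_pow, eval_X, mul_comm]
  have hes : ∀ i, e (i + 1) = e i ^ q + t ^ q * a (i + 1) := by
    intro i
    change ((langPoly q a i) ^ q + C (a (i + 1)) * X ^ q : K[X]).eval t = _
    rw [eval_add, eval_mul, eval_C, eval_pow, eval_pow, eval_X, mul_comm (a (i + 1))]
  have hem : e m = t := ht
  refine ⟨∑ i ∈ Finset.range (m + 1), e i • φ^[i] v, ?_, ?_⟩
  · intro h0
    rw [Finset.sum_range] at h0
    have := Fintype.linearIndependent_iff.1 hli (fun i => e i) h0 ⟨m, by omega⟩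
    apply ht0
    rw [← hem]
    exact this
  · rw [map_sum, Finset.sum_range_succ, Finset.sum_range_succ']
    simp only [map_smulₛₗ, hσ]
    have h1 : φ (φ^[m] v) = φ^[m + 1] v := (Function.iterate_succ_apply' φ m v).symm
    rw [h1, hc', hem, Finset.sum_range_succ' (fun i => a i • φ^[i] v), smul_add, Finset.smul_sum,
      ← add_assoc, ← Finset.sum_add_distrib, he0]
    congr 1
    · refine Finset.sum_congr rfl fun i _ => ?_
      rw [hes, ← Function.iterate_succ_apply' φ i v, smul_smul, ← add_smul]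
    · rw [smul_smul]

/-- **Lang's theorem**, linear version: the fixed vectors span. -/
theorem span_fixed_eq_top [FiniteDimensional K V] {q : ℕ} (hq : 2 ≤ q)
    {σ : K →+* K} (hσ : ∀ x, σ x = x ^ q) (φ : V →ₛₗ[σ] V) (hφ : Function.Injective φ) :
    Submodule.span K {v | φ v = v} = ⊤ := by
  set W := Submodule.span K {v | φ v = v} with hW
  by_contra hne
  have hle : W ≤ W.comap φ := by
    rw [hW, Submodule.span_le]
    intro v hv
    change φ v ∈ Submodule.span K {v | φ v = v}
    rw [show φ v = v from hv]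
    exact Submodule.subset_span hv
  have hsurj : ∀ w ∈ W, ∃ w' ∈ W, φ w' = w := by
    intro w hw
    rw [hW] at hw
    induction hw using Submodule.span_induction with
    | mem w hw => exact ⟨w, Submodule.subset_span hw, hw⟩
    | zero => exact ⟨0, W.zero_mem, map_zero _⟩
    | add x y _ _ hx hy =>
      obtain ⟨x', h1, h2⟩ := hx
      obtain ⟨y', h3, h4⟩ := hy
      exact ⟨x' + y', W.add_mem h1 h3, by rw [map_add, h2, h4]⟩
    | smul c x _ hx =>
      obtain ⟨x', h1, h2⟩ := hx
      obtain ⟨d, hd⟩ := IsAlgClosed.exists_pow_nat_eq c (by omega : 0 < q)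
      exact ⟨d • x', W.smul_mem _ h1, by rw [map_smulₛₗ, hσ, hd, h2]⟩
  haveI hnt : Nontrivial (V ⧸ W) := Submodule.Quotient.nontrivial_iff.2 hne
  have hinj : Function.Injective (W.mapQ W φ hle) := by
    rw [injective_iff_map_eq_zero]
    intro x hx
    obtain ⟨u, rfl⟩ := W.mkQ_surjective x
    rw [Submodule.mkQ_apply, Submodule.mapQ_apply, Submodule.Quotient.mk_eq_zero] at hx
    obtain ⟨w', hw', h1⟩ := hsurj _ hx
    rw [Submodule.mkQ_apply, Submodule.Quotient.mk_eq_zero, ← hφ h1]
    exact hw'
  obtain ⟨x, hx0, hx⟩ := exists_fixed_vector hq hσ (W.mapQ W φ hle) hinj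
  obtain ⟨u, rfl⟩ := W.mkQ_surjective x
  rw [Submodule.mkQ_apply] at hx0
  have hu : φ u - u ∈ W := by
    rw [← Submodule.Quotient.mk_eq_zero W, Submodule.Quotient.mk_sub, sub_eq_zero]
    exact hx
  have key : ∀ w ∈ W, ∀ c : K, ∃ w' ∈ W, φ w' - w' = c • w := by
    intro w hw
    rw [hW] at hw
    induction hw using Submodule.span_induction with
    | mem w hw =>
      intro c
      obtain ⟨t, ht⟩ : ∃ t : K, t ^ q - t = c := by
        have hdeg : (X ^ q - (X + C c) : K[X]).degree ≠ 0 := by
          have h1 : (X + C c : K[X]).degree < (X ^ q : K[X]).degree := by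
            rw [degree_X_add_C, degree_X_pow]
            exact_mod_cast hq
          rw [degree_sub_eq_left_of_degree_lt h1, degree_X_pow]
          exact_mod_cast (by omega : q ≠ 0)
        obtain ⟨t, ht⟩ := IsAlgClosed.exists_root _ hdeg
        refine ⟨t, ?_⟩
        have : (X ^ q - (X + C c) : K[X]).eval t = 0 := ht
        rw [eval_sub, eval_add, eval_pow, eval_X, eval_C] at this
        linear_combination this
      refine ⟨t • w, W.smul_mem _ (Submodule.subset_span hw), ?_⟩
      rw [map_smulₛₗ, show φ w = w from hw, hσ, ← sub_smul, ht]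
    | zero => intro c; exact ⟨0, W.zero_mem, by rw [map_zero, sub_zero, smul_zero]⟩
    | add x y _ _ hx hy =>
      intro c
      obtain ⟨x', h1, h2⟩ := hx c
      obtain ⟨y', h3, h4⟩ := hy c
      refine ⟨x' + y', W.add_mem h1 h3, ?_⟩
      rw [map_add, smul_add, ← h2, ← h4]; abel
    | smul d x _ hx =>
      intro c
      obtain ⟨x', h1, h2⟩ := hx (c * d)
      exact ⟨x', h1, by rw [h2, mul_smul]⟩
  obtain ⟨w', hw', h1⟩ := key _ hu 1
  rw [one_smul] at h1
  have h2 : u - w' ∈ W := by
    rw [hW]
    refine Submodule.subset_span ?_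
    change φ (u - w') = u - w'
    rw [map_sub, sub_eq_sub_iff_sub_eq_sub, ← h1]
  apply hx0
  rw [Submodule.Quotient.mk_eq_zero]
  have := W.add_mem h2 hw'
  rwa [sub_add_cancel] at this

/-- **Lang's theorem** for `GL_n`. -/
theorem lang_GL {p : ℕ} [Fact p.Prime] [CharP K p] {f : ℕ} (hf : 1 ≤ f) {n : ℕ}
    (g : Matrix.GeneralLinearGroup (Fin n) K) :
    ∃ x : Matrix.GeneralLinearGroup (Fin n) K,
      g = x * (Matrix.GeneralLinearGroup.map (iterateFrobenius K p f) x)⁻¹ := by
  classical
  have hp : 2 ≤ p := (Fact.out : p.Prime).two_le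
  have hq : 2 ≤ p ^ f := hp.trans (Nat.le_self_pow (by omega) p)
  set σ : K →+* K := iterateFrobenius K p f with hσd
  have hσ : ∀ x, σ x = x ^ p ^ f := fun x => iterateFrobenius_def p f x
  set φ : (Fin n → K) →ₛₗ[σ] (Fin n → K) :=
    { toFun := fun v => (g : Matrix (Fin n) (Fin n) K).mulVec (fun i => σ (v i))
      map_add' := fun v w => by
        rw [← Matrix.mulVec_add]
        congr 1
        funext i
        exact map_add σ _ _
      map_smul' := fun c v => by
        rw [← Matrix.mulVec_smul]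
        congr 1
        funext i
        exact map_mul σ _ _ } with hφd
  have hφa : ∀ v, φ v = (g : Matrix (Fin n) (Fin n) K).mulVec (fun i => σ (v i)) := fun v => rfl
  have hφ : Function.Injective φ := by
    rw [injective_iff_map_eq_zero]
    intro v hv
    rw [hφa] at hv
    have h1 : (fun i => σ (v i)) = 0 := by
      have h2 := congrArg ((g⁻¹ : Matrix.GeneralLinearGroup (Fin n) K) : Matrix (Fin n) (Fin n) K).mulVec hv
      rw [Matrix.mulVec_mulVec, ← Units.val_mul, inv_mul_cancel, Units.val_one, Matrix.one_mulVec,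
        Matrix.mulVec_zero] at h2
      exact h2
    funext i
    have h3 := congrFun h1 i
    exact (map_eq_zero σ).1 h3
  have hspan := span_fixed_eq_top hq hσ φ hφ
  set b₀ := Module.Basis.ofSpan (K := K) (s := {v | φ v = v}) (by rw [hspan]) with hb₀
  set b := b₀.reindex (b₀.indexEquiv (Pi.basisFun K (Fin n))) with hb
  have hfix : ∀ i, φ (b i) = b i := by
    intro i
    have h1 : b i ∈ Set.range b₀ := by
      rw [hb, Module.Basis.reindex_apply]; exact ⟨_, rfl⟩
    exact Module.Basis.ofSpan_subset (K := K) (s := {v | φ v = v}) _ h1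
  set x : Matrix.GeneralLinearGroup (Fin n) K :=
    ⟨(Pi.basisFun K (Fin n)).toMatrix b, b.toMatrix (Pi.basisFun K (Fin n)),
      Module.Basis.toMatrix_mul_toMatrix_flip _ _, Module.Basis.toMatrix_mul_toMatrix_flip _ _⟩ with hx
  have hxe : ∀ i j, (x : Matrix (Fin n) (Fin n) K) i j = b j i := by
    intro i j
    rw [hx]
    rfl
  refine ⟨x, ?_⟩
  rw [eq_mul_inv_iff_mul_eq]
  ext i j
  rw [Units.val_mul, Matrix.mul_apply, hxe]
  have h1 := congrFun (hfix j) i
  rw [hφa] at h1
  rw [← h1, Matrix.mulVec, dotProduct]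
  refine Finset.sum_congr rfl fun k _ => ?_
  rw [← hxe k j]
  rfl

end Lang

end Cfsg.Agent.Orth
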