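import Cfsg.Agent.Orth.Homs

/-!
The subgroup generated by products of two reflections.
-/

set_option autoImplicit false

namespace Cfsg.Agent.Orth

open QuadraticMap

variable {F : Type*} [Field F] {ι : Type} [Fintype ι] [DecidableEq ι]

/-- The closure of the products of two reflections, in the matrix isometry group. -/
theorem mem_closure_pairs_iff (Q : QuadraticForm F (ι → F)) (g : ↥(Cfsg.isometryGroup F ⇑Q)) :
    g ∈ Subgroup.closure {g : ↥(Cfsg.isometryGroup F ⇑Q) | ∃ u v : ι → F, Q u ≠ 0 ∧ Q v ≠ 0 ∧
      ((g : Matrix.GeneralLinearGroup ι F) : Matrix ι ι F)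
        = Cfsg.reflectionMatrix ⇑Q u * Cfsg.reflectionMatrix ⇑Q v} ↔
    ∃ l : List {v : ι → F // Q v ≠ 0}, bridge Q g = reflProd Q l ∧ Even l.length := by
  constructor
  · intro hg
    induction hg using Subgroup.closure_induction with
    | mem x hx =>
      obtain ⟨u, v, hu, hv, h⟩ := hx
      refine ⟨[⟨u, hu⟩, ⟨v, hv⟩], ?_, ⟨1, rfl⟩⟩
      rw [bridge_eq_reflProd_iff]
      simpa using h
    | one => exact ⟨[], by rw [map_one, reflProd_nil], by simp⟩
    | mul x y _ _ hx hy =>
      obtain ⟨l, h1, h2⟩ := hx
      obtain ⟨l', h3, h4⟩ := hy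
      exact ⟨l ++ l', by rw [map_mul, h1, h3, reflProd_append], by
        rw [List.length_append]; exact h2.add h4⟩
    | inv x _ hx =>
      obtain ⟨l, h1, h2⟩ := hx
      exact ⟨l.reverse, by rw [map_inv, h1, reflProd_reverse], by rwa [List.length_reverse]⟩
  · rintro ⟨l, hl, n, hn⟩
    induction n generalizing l g with
    | zero =>
      have : l = [] := List.length_eq_zero_iff.1 (by omega)
      subst this
      rw [reflProd_nil, MulEquiv.map_eq_one_iff] at hl
      rw [hl]
      exact Subgroup.one_mem _
    | succ n ih =>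
      match l, hn with
      | [], hn => simp at hn
      | [_], hn => simp at hn; omega
      | u :: v :: l', hn =>
        have hg : g = (bridge Q).symm (refl Q u.1 u.2 * refl Q v.1 v.2)
            * (bridge Q).symm (reflProd Q l') := by
          apply (bridge Q).injective
          rw [hl, map_mul, MulEquiv.apply_symm_apply, MulEquiv.apply_symm_apply, reflProd_cons,
            reflProd_cons, mul_assoc]
        rw [hg]
        refine Subgroup.mul_mem _ (Subgroup.subset_closure ⟨u.1, v.1, u.2, v.2, ?_⟩)
          (ih _ l' (MulEquiv.apply_symm_apply _ _) (by simp only [List.length_cons] at hn; omega))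
        have := (bridge_eq_reflProd_iff Q ((bridge Q).symm (refl Q u.1 u.2 * refl Q v.1 v.2))
          [u, v]).1 (by rw [MulEquiv.apply_symm_apply]; simp [reflProd])
        simpa using this

end Cfsg.Agent.Orth
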