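import Cfsg.Agent.Uni.Stab

/-!
Transvections in `SU_n(q)` are conjugate for `n ≥ 3`.
-/

set_option autoImplicit false

namespace Cfsg.Agent.Orth

open Module Cfsg.Agent.Uni Matrix

variable {F : Type*} [Field F] [Fintype F] {q : ℕ} {n : ℕ}

/-- Shape of transvections in `SU`. -/
theorem exists_isEich_of_transvection (hF : Fintype.card F = q ^ 2) (s : SU n F q)
    (hs : Cfsg.IsTransvection ((s : Matrix.SpecialLinearGroup (Fin n) F) : Matrix (Fin n) (Fin n) F)) :
    ∃ (u : Fin n → F) (a : F), u ≠ 0 ∧ hermForm n F q u u = 0 ∧ a ≠ 0 ∧ a ^ q = -a ∧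
      IsEich s u 0 a := by
  obtain ⟨h1, h2⟩ := hs
  set N := ((s : Matrix.SpecialLinearGroup (Fin n) F) : Matrix (Fin n) (Fin n) F) - 1 with hN
  have hr : finrank F (LinearMap.range N.mulVecLin) = 1 := h1
  obtain ⟨u', hu'0, hu'⟩ := finrank_eq_one_iff'.1 hr
  set u : Fin n → F := (u' : Fin n → F) with hu
  have hu0 : u ≠ 0 := fun h => hu'0 (Subtype.ext h)
  have hφ : ∀ x, ∃ c : F, N *ᵥ x = c • u := by
    intro x
    obtain ⟨c, hc⟩ := hu' ⟨N *ᵥ x, ⟨x, rfl⟩⟩
    exact ⟨c, (congrArg Subtype.val hc).symm⟩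
  choose φ hφ using hφ
  have hact : ∀ x, act s x = x + φ x • u := by
    intro x
    rw [← hφ, hN, Matrix.sub_mulVec, Matrix.one_mulVec, act_def]
    abel
  have hφu : φ u = 0 := by
    obtain ⟨x, hx⟩ := u'.2
    have hx' : N *ᵥ x = u := hx
    have h3 : N *ᵥ (N *ᵥ x) = 0 := by rw [Matrix.mulVec_mulVec, h2, Matrix.zero_mulVec]
    rw [hx', hφ] at h3
    exact (smul_eq_zero.1 h3).resolve_right hu0
  obtain ⟨x₀, hx₀⟩ : ∃ x, φ x ≠ 0 := by
    obtain ⟨x, hx⟩ := u'.2
    have hx' : N *ᵥ x = u := hx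
    refine ⟨x, fun h => hu0 ?_⟩
    rw [← hx', hφ, h, zero_smul]
  have hmain : ∀ x y, φ x * hermForm n F q u y + φ y ^ q * hermForm n F q x u +
      φ x * φ y ^ q * hermForm n F q u u = 0 := by
    intro x y
    have h3 := act_form s x y
    rw [hact, hact, hermForm_add_left, hermForm_add_right hF, hermForm_add_right hF,
      hermForm_smul_left, hermForm_smul_right, hermForm_smul_left, hermForm_smul_right] at h3
    linear_combination h3
  have huu : hermForm n F q u u = 0 := by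
    have h3 := hmain u x₀
    rw [hφu, zero_mul, zero_mul, zero_mul, zero_add, add_zero] at h3
    exact (mul_eq_zero.1 h3).resolve_left (pow_ne_zero _ hx₀)
  obtain ⟨y, hy⟩ : ∃ y, hermForm n F q u y ≠ 0 := by
    by_contra hcon
    push Not at hcon
    exact hu0 (hermForm_nondeg hF hcon)
  obtain ⟨y₀, hy₀⟩ : ∃ y, hermForm n F q u y = 1 := by
    refine ⟨((hermForm n F q u y)⁻¹ ^ q) • y, ?_⟩
    rw [hermForm_smul_right, pow_q_pow_q hF, inv_mul_cancel₀ hy]
  set a := -(φ y₀) ^ q with ha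
  have hφa : ∀ x, φ x = a * hermForm n F q x u := by
    intro x
    have h3 := hmain x y₀
    rw [hy₀, huu] at h3
    rw [ha]
    linear_combination h3
  have ha0 : a ≠ 0 := by
    intro h0
    apply hx₀
    rw [hφa, h0, zero_mul]
  have hy₀' : hermForm n F q y₀ u = 1 := by
    rw [← hermForm_symm hF, hy₀, one_pow]
  have hskew : a ^ q = -a := by
    have h3 := hφa y₀
    rw [hy₀', mul_one] at h3
    rw [← h3]
    have h4 : a = -(φ y₀) ^ q := ha
    rw [← h3] at h4
    rw [h4, neg_neg, ← h4]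
  refine ⟨u, a, hu0, huu, ha0, hskew, ?_⟩
  rw [isEich_zero_iff hF]
  intro x
  rw [hact, hφa]

/-- A unit vector orthogonal to a given non-zero isotropic vector. -/
theorem exists_unit_perp (hF : Fintype.card F = q ^ 2) (hn : 3 ≤ n) {w : Fin n → F} (hw0 : w ≠ 0) :
    ∃ z, hermForm n F q z z = 1 ∧ hermForm n F q w z = 0 := by
  set P := perp q (Submodule.span F {w}) with hP
  have hfr := finrank_perp hF (Submodule.span F {w})
  rw [finrank_span_singleton hw0] at hfr
  obtain ⟨x, hx, y, hy, hxy⟩ : ∃ x ∈ P, ∃ y ∈ P, hermForm n F q x y ≠ 0 := by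
    by_contra hcon
    push Not at hcon
    have hle : P ≤ perp q P := fun x hx y hy => hcon x hx y hy
    rw [hP, perp_perp hF] at hle
    have h2 := Submodule.finrank_mono hle
    rw [finrank_span_singleton hw0] at h2
    omega
  obtain ⟨z, hz, hz1⟩ := exists_unit_mem hF P hx hy hxy
  refine ⟨z, hz1, ?_⟩
  rw [hermForm_eq_zero_comm hF]
  exact hz w (Submodule.mem_span_singleton_self w)

/-- Transitivity of `SU_n(q)`, `n ≥ 3`, on non-zero isotropic vectors. -/
theorem exists_SU_isotropic (hF : Fintype.card F = q ^ 2) (hn : 3 ≤ n) {u w : Fin n → F}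
    (hu0 : u ≠ 0) (hw0 : w ≠ 0) (hu : hermForm n F q u u = 0) (hw : hermForm n F q w w = 0) :
    ∃ k : SU n F q, act k u = w := by
  obtain ⟨g, hg⟩ := exists_GU_of_family hF (k := 1) (x := fun _ => u) (y := fun _ => w)
    (by rw [linearIndependent_unique_iff]; exact hu0) (by rw [linearIndependent_unique_iff]; exact hw0)
    (fun _ _ => by rw [hu, hw])
  have hg := hg 0
  obtain ⟨z, hz, hwz⟩ := exists_unit_perp hF hn hw0
  set d := ((g : GL (Fin n) F) : Matrix (Fin n) (Fin n) F).det with hd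
  have hdn : d ^ (q + 1) = 1 := (GU_pres g).det_norm hF
  have hdn' : (d⁻¹) ^ (q + 1) = 1 := by rw [inv_pow, hdn, inv_one]
  obtain ⟨r, hr, hrd⟩ := exists_grefl hF hz hdn'
  have hd0 : d ≠ 0 := by
    intro h0
    rw [h0, zero_pow (by omega)] at hdn
    exact zero_ne_one hdn
  rw [detHom_coe] at hrd
  refine ⟨mkSU (((r * g : GU n F q) : GL (Fin n) F) : Matrix (Fin n) (Fin n) F) (GU_pres (r * g)) ?_, ?_⟩
  · have : (((r * g : GU n F q) : GL (Fin n) F) : Matrix (Fin n) (Fin n) F) =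
      ((r : GL (Fin n) F) : Matrix (Fin n) (Fin n) F) * ((g : GL (Fin n) F) : Matrix (Fin n) (Fin n) F) := rfl
    rw [this, Matrix.det_mul, hrd, ← hd, inv_mul_cancel₀ hd0]
  · rw [act_def, mkSU_coe]
    change gact (r * g) u = w
    rw [gact_mul]
    have : gact g u = w := hg
    rw [this, hr, hwz, mul_zero, zero_smul, add_zero]

theorem transvections_conj (hF : Fintype.card F = q ^ 2) (hn : 3 ≤ n) (s t : SU n F q)
    (hs : Cfsg.IsTransvection ((s : Matrix.SpecialLinearGroup (Fin n) F) : Matrix (Fin n) (Fin n) F))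
    (ht : Cfsg.IsTransvection ((t : Matrix.SpecialLinearGroup (Fin n) F) : Matrix (Fin n) (Fin n) F)) :
    IsConj s t := by
  obtain ⟨u, a, hu0, hu, ha0, ha, hsE⟩ := exists_isEich_of_transvection hF s hs
  obtain ⟨w, b, hw0, hw, hb0, hb, htE⟩ := exists_isEich_of_transvection hF t ht
  obtain ⟨c, hc⟩ := exists_norm_eq hF (c := b / a) (by rw [div_pow, ha, hb, neg_div_neg_eq])
  have hc0 : c ≠ 0 := by
    rintro rfl
    rw [zero_pow (by omega)] at hc
    exact (div_ne_zero hb0 ha0) hc.symm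
  obtain ⟨k, hk⟩ := exists_SU_isotropic hF hn hu0 (smul_ne_zero hc0 hw0) hu
    (by rw [hermForm_smul_left, hermForm_smul_right, hw, mul_zero, mul_zero])
  rw [isConj_iff]
  refine ⟨k, ?_⟩
  have h1 := hsE.conj k
  rw [act_zero, hk, isEich_zero_iff hF] at h1
  rw [isEich_zero_iff hF] at htE
  apply act_ext
  intro x
  rw [h1, htE, hermForm_smul_right, smul_smul]
  congr 2
  have : c ^ (q + 1) * a = b := by rw [hc, div_mul_cancel₀ _ ha0]
  rw [← this, pow_succ]
  ring

end Cfsg.Agent.Orth
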