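import Cfsg.Agent.Orth.Sum

/-!
The swap of the two summands of `Q ⊕ Q`; diagonal isometries lie in the commutator subgroup.
-/

set_option autoImplicit false

namespace Cfsg.Agent.Orth

open QuadraticMap Module

variable {ι : Type} {F : Type*} [Field F]

/-- Swap of the two summands. -/
noncomputable def swapO (Q : QuadraticForm F (ι → F)) : OGrp (qsum Q Q) :=
  mkIsom (qsum Q Q) (LinearMap.funLeft F F Sum.swap) (LinearMap.funLeft F F Sum.swap)
    (fun x => by funext k; rcases k with k | k <;> rfl)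
    (fun x => by funext k; rcases k with k | k <;> rfl)
    (fun x => by
      rw [qsum_apply, qsum_apply, add_comm]
      rfl)

theorem swapO_apply (Q : QuadraticForm F (ι → F)) (v : ι ⊕ ι → F) :
    (swapO Q : (ι ⊕ ι → F) ≃ₗ[F] (ι ⊕ ι → F)) v = Sum.elim (v ∘ Sum.inr) (v ∘ Sum.inl) := by
  funext k
  rcases k with k | k <;> rfl

theorem swapO_blk (Q : QuadraticForm F (ι → F)) (g h : OGrp Q) :
    swapO Q * blk Q Q (g, h) = blk Q Q (h, g) * swapO Q := by
  apply OGrp_ext
  intro x
  rw [coe_mul_apply, coe_mul_apply, swapO_apply, swapO_apply, blk_apply, blk_apply,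
    Sum.elim_comp_inl, Sum.elim_comp_inr, Sum.elim_comp_inl, Sum.elim_comp_inr]

theorem blk_diag_mem_commutator [Finite F] [Finite ι] {Q : QuadraticForm F (ι → F)}
    (hQ : (polarBilin Q).Nondegenerate) (g : OGrp Q) :
    blk Q Q (g, g) ∈ commutator (OGrp (qsum Q Q)) := by
  have h1 : blk Q Q (g, g) = blk Q Q (g, 1) * blk Q Q (1, g) := by
    rw [← _root_.map_mul, Prod.mk_mul_mk, mul_one, one_mul]
  have h2 : Abelianization.of (blk Q Q (g, 1)) = Abelianization.of (blk Q Q (1, g)) := by
    have h3 := congrArg Abelianization.of (swapO_blk Q g 1)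
    rw [_root_.map_mul, _root_.map_mul, mul_comm] at h3
    exact mul_right_cancel h3
  have h3 := mul_self_mem_commutator (qsum_nondegenerate hQ hQ) (blk Q Q (g, 1))
  rw [mem_commutator_iff_of_eq_one] at h3 ⊢
  rw [_root_.map_mul] at h3
  rw [h1, _root_.map_mul, ← h2]
  exact h3

end Cfsg.Agent.Orth
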